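import Mathlib
import Cfsg.Agent.Lib.Helper70.Alp.S3782Defs

/-!
# S3782 package (B) `LemSecFix` (helper29)

In a `p`-group `N` with an automorphism `α` having at most `p ^ n` fixed points, if `B ≤ A` are
`α`-invariant subgroups with `B` normalized by `A`, then every `g ∈ A` with `g⁻¹ * α g ∈ B`
satisfies `g ^ p ^ n ∈ B`.
-/

set_option autoImplicit false

namespace Cfsg.Agent.Lib.Helper29.Alp

open Cfsg.Agent.Lib.Helper70.Alp

universe u

/-- The subgroup of `A` of elements fixed by `α` modulo `B`. -/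
def secFix {N : Type u} [Group N] (α : MulAut N) (A B : Subgroup N)
    (hn : ∀ a ∈ A, ∀ b ∈ B, a * b * a⁻¹ ∈ B) : Subgroup N where
  carrier := {g | g ∈ A ∧ g⁻¹ * α g ∈ B}
  one_mem' := by
    refine ⟨A.one_mem, ?_⟩
    rw [map_one, inv_one, one_mul]
    exact B.one_mem
  mul_mem' := by
    rintro g h ⟨hgA, hg⟩ ⟨hhA, hh⟩
    refine ⟨A.mul_mem hgA hhA, ?_⟩
    have h1 : h⁻¹ * (g⁻¹ * α g) * h⁻¹⁻¹ ∈ B := hn h⁻¹ (A.inv_mem hhA) _ hg
    have h2 : (g * h)⁻¹ * α (g * h) = (h⁻¹ * (g⁻¹ * α g) * h⁻¹⁻¹) * (h⁻¹ * α h) := by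
      rw [map_mul]
      group
    rw [h2]
    exact B.mul_mem h1 hh
  inv_mem' := by
    rintro g ⟨hgA, hg⟩
    refine ⟨A.inv_mem hgA, ?_⟩
    have h1 : g * (g⁻¹ * α g)⁻¹ * g⁻¹ ∈ B := hn g hgA _ (B.inv_mem hg)
    have h2 : g⁻¹⁻¹ * α g⁻¹ = g * (g⁻¹ * α g)⁻¹ * g⁻¹ := by
      rw [map_inv]
      group
    rw [h2]
    exact h1

theorem lemSecFix : LemSecFix.{u} := by
  intro p _ N _ _ α n hN hfix A B hBA hn hαA hαB g hgA hg
  classical
  have hpp : p.Prime := Fact.out
  set S : Subgroup N := secFix α A B hn with hSdef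
  have hgS : g ∈ S := ⟨hgA, hg⟩
  have hBS : B ≤ S := by
    intro b hb
    exact ⟨hBA hb, B.mul_mem (B.inv_mem hb) (hαB b hb)⟩
  -- `|S| ≤ |B| * |Fix α|`
  have hcard : Nat.card S ≤ Nat.card B * Nat.card {x : N // α x = x} := by
    let φ : S → B := fun s => ⟨(s : N)⁻¹ * α (s : N), s.2.2⟩
    let rep : B → S := fun b => if h : ∃ s : S, φ s = b then Classical.choose h else 1
    have hrep : ∀ s : S, φ (rep (φ s)) = φ s := by
      intro s
      have h : ∃ s' : S, φ s' = φ s := ⟨s, rfl⟩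
      show φ (if h : ∃ s' : S, φ s' = φ s then Classical.choose h else 1) = φ s
      rw [dif_pos h]
      exact Classical.choose_spec h
    have hfixmem : ∀ s : S, α ((s : N) * ((rep (φ s) : S) : N)⁻¹) = (s : N) * ((rep (φ s) : S) : N)⁻¹ := by
      intro s
      have h1 := congrArg (fun b : B => (b : N)) (hrep s)
      have h2 : ((rep (φ s) : S) : N)⁻¹ * α ((rep (φ s) : S) : N) = (s : N)⁻¹ * α (s : N) := h1
      rw [map_mul, map_inv]
      have h3 : α (s : N) = (s : N) * (((rep (φ s) : S) : N)⁻¹ * α ((rep (φ s) : S) : N)) := by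
        rw [h2]
        group
      rw [h3]
      group
    let ψ : S → B × {x : N // α x = x} := fun s =>
      (φ s, ⟨(s : N) * ((rep (φ s) : S) : N)⁻¹, hfixmem s⟩)
    have hinj : Function.Injective ψ := by
      intro s s' h
      have h1 : φ s = φ s' := congrArg Prod.fst h
      have h2 : (s : N) * ((rep (φ s) : S) : N)⁻¹ = (s' : N) * ((rep (φ s') : S) : N)⁻¹ :=
        congrArg (fun z : B × {x : N // α x = x} => (z.2 : N)) h
      rw [h1] at h2
      exact Subtype.ext (mul_right_cancel h2)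
    have := Nat.card_le_card_of_injective ψ hinj
    rwa [Nat.card_prod] at this
  -- the index of `B` in `S`
  have hnorm : (B.subgroupOf S).Normal := by
    constructor
    intro b hb s
    rw [Subgroup.mem_subgroupOf] at hb ⊢
    exact hn (s : N) s.2.1 (b : N) hb
  have hcardB : Nat.card (B.subgroupOf S) = Nat.card B :=
    Nat.card_congr (Subgroup.subgroupOfEquivOfLe hBS).toEquiv
  have hmul : Nat.card (B.subgroupOf S) * (B.subgroupOf S).index = Nat.card S :=
    Subgroup.card_mul_index _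
  have hBpos : 0 < Nat.card B := Nat.card_pos
  have hidx_le : (B.subgroupOf S).index ≤ p ^ n := by
    have h1 : Nat.card B * (B.subgroupOf S).index ≤ Nat.card B * p ^ n := by
      have h0 : Nat.card B * (B.subgroupOf S).index = Nat.card S := by
        rw [← hcardB]
        exact hmul
      rw [h0]
      calc Nat.card S ≤ Nat.card B * Nat.card {x : N // α x = x} := hcard
        _ ≤ Nat.card B * p ^ n := Nat.mul_le_mul_left _ hfix
    exact Nat.le_of_mul_le_mul_left h1 hBpos
  have hSp : IsPGroup p S := hN.to_subgroup S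
  obtain ⟨a, ha⟩ := IsPGroup.iff_card.mp hSp
  have hidx_dvd : (B.subgroupOf S).index ∣ p ^ a := by
    rw [← ha]
    exact Subgroup.index_dvd_card _
  obtain ⟨k, -, hk⟩ := (Nat.dvd_prime_pow hpp).mp hidx_dvd
  have hkn : k ≤ n := by
    rw [hk] at hidx_le
    exact (Nat.pow_le_pow_iff_right hpp.one_lt).mp hidx_le
  have hpow : (⟨g, hgS⟩ : S) ^ (B.subgroupOf S).index ∈ B.subgroupOf S :=
    Subgroup.pow_index_mem _ _
  rw [hk, Subgroup.mem_subgroupOf] at hpow
  have hpow' : g ^ p ^ k ∈ B := by simpa using hpow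
  have hsplit : p ^ n = p ^ k * p ^ (n - k) := by
    rw [← pow_add]
    congr 1
    omega
  rw [hsplit, pow_mul]
  exact B.pow_mem hpow' _

end Cfsg.Agent.Lib.Helper29.Alp
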